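import Cfsg.Agent.H70.F4Out.Field
import Cfsg.Agent.H4.OutStruct

/-!
The outer automorphism group of a twisted group of type F₄ consists of field automorphisms.
-/

set_option autoImplicit false
set_option maxRecDepth 100000

open Cfsg.Lie Cfsg.Agent.H46 Cfsg.Agent.H65.Twist

namespace Cfsg.Agent.H70.F4Out

variable {K : Type*} [Field K] [Fintype K] [CharP K 2] {m : ℕ} (hK : Fintype.card K = 2 ^ (2 * m + 1))
  (hm : 1 ≤ m)

theorem pairU_eq_one {t : K} (e : pairU K m t = 1) : t = 0 := pairU_injective (e.trans pairU_zero.symm)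

include hm in
theorem exists_field_inner (θ : MulAut ↥(TD hK).G1) :
    ∃ (σ : K ≃+* K) (y : ↥(TD hK).G1), MulAut.conj y * θ = fieldAut hK σ := by
  classical
  obtain ⟨x, hU, hH, hrest⟩ := normalise' hK hm θ
  set θ₁ := MulAut.conj x * θ with hθ₁
  -- images of the coordinates
  have h0 : ∀ t, ∃ s, ap θ₁ (pairU K m t) = pairU K m s := fun t =>
    mem_X0 hK (((hrest 0).1 _ (pairU_G1 hK t)).2 (pairU_X1 hK t))
  have h1 : ∀ t u, ∃ s r, ap θ₁ (b2U K m t u) = b2U K m s r := fun t u =>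
    mem_X1 hK (((hrest 1).1 _ (b2U_G1 hK t u)).2 (b2U_X1 hK t u))
  obtain ⟨a0, ha0⟩ := h0 1
  obtain ⟨b0, r0, hb0⟩ := h1 1 0
  have ha00 : a0 ≠ 0 := fun e => by
    rw [e, pairU_zero, ← ap_one θ₁] at ha0
    exact one_ne_zero (pairU_eq_one (ap_inj θ₁ (pairU_G1 hK 1) (one_mem _) ha0))
  have hb00 : b0 ≠ 0 := fun e => by
    have h2 := congrArg (fun g => g * g) hb0
    simp only [← ap_mul θ₁ (b2U_G1 hK 1 0) (b2U_G1 hK 1 0), b2U_sq hK, e, map_zero, mul_zero, map_one, mul_one,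
      b2U_zero] at h2
    rw [← ap_one θ₁] at h2
    exact one_ne_zero (b2U_injective ((ap_inj θ₁ (b2U_G1 hK 0 1) (one_mem _) h2).trans b2U_zero.symm)).2
  -- scale by a diagonal element
  obtain ⟨d, hd, hdA, hdB, -⟩ := exists_torus hK (Units.mk0 a0 ha00)⁻¹ (Units.mk0 b0 hb00)⁻¹
  set dG : ↥(TD hK).G1 := ⟨d, H0_le_G1 (TD hK) hd⟩
  set θ₂ := MulAut.conj dG * θ₁ with hθ₂
  have hdU : Fixes (MulAut.conj dG) (TD hK).U1 := fixes_of_map _ fun g hg hgU => by
    rw [ap_conj_aut dG hg]; exact (TD hK).H0_conj_U1 hd hgU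
  have hdH : Fixes (MulAut.conj dG) (TD hK).H0 := fixes_of_map _ fun g hg hgH => by
    rw [ap_conj_aut dG hg]; exact mul_mem (mul_mem hd hgH) (inv_mem hd)
  have hU₂ : Fixes θ₂ (TD hK).U1 := hdU.mul hU
  have hH₂ : Fixes θ₂ (TD hK).H0 := hdH.mul hH
  have e2 : ∀ g ∈ (TD hK).G1, ap θ₂ g = d * ap θ₁ g * d⁻¹ := fun g hg => by
    rw [hθ₂, ap_comp _ _ hg, ap_conj_aut dG (ap_mem θ₁ hg)]
  have hn₂ : ∀ j, ∃ k ∈ (TD hK).H0, ap θ₂ ((TD hK).nS j) = k * (TD hK).nS j := fun j => by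
    obtain ⟨k, hk, e⟩ := (hrest j).2
    refine ⟨d * k * ((TD hK).nS j * d⁻¹ * ((TD hK).nS j)⁻¹), mul_mem (mul_mem hd hk) ((TD hK).H0_conj j _ (inv_mem hd)), ?_⟩
    rw [e2 _ ((TD hK).N0_le_G1 ((TD hK).nS_mem_N0 j)), e]
    group
  have hφ' : ∀ t, ∃ s, ap θ₂ (pairU K m t) = pairU K m s := fun t => by
    obtain ⟨s, e⟩ := h0 t
    exact ⟨_, by rw [e2 _ (pairU_G1 hK t), e, hdA]⟩
  have hψ' : ∀ t u, ∃ s r, ap θ₂ (b2U K m t u) = b2U K m s r := fun t u => by
    obtain ⟨s, r, e⟩ := h1 t u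
    exact ⟨_, _, by rw [e2 _ (b2U_G1 hK t u), e, hdB]⟩
  choose φ hφ using hφ'
  choose ψ χ hψ using hψ'
  have hφ1 : φ 1 = 1 := by
    have h := hφ 1
    rw [e2 _ (pairU_G1 hK 1), ha0, hdA] at h
    rw [← pairU_injective h]
    simp [ha00]
  have hψ1 : ψ 1 0 = 1 := by
    have h := hψ 1 0
    rw [e2 _ (b2U_G1 hK 1 0), hb0, hdB] at h
    rw [← (b2U_injective h).1]
    simp [hb00]
  have hφadd : ∀ s t, φ (s + t) = φ s + φ t := fun s t => pairU_injective (by
    rw [← hφ, ← pairU_add, ap_mul θ₂ (pairU_G1 hK s) (pairU_G1 hK t), hφ, hφ, pairU_add])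
  have hφ0 : φ 0 = 0 := pairU_injective (by rw [← hφ, pairU_zero, ap_one])
  have hφinj : Function.Injective φ := fun s t e => by
    have : ap θ₂ (pairU K m s) = ap θ₂ (pairU K m t) := by rw [hφ, hφ, e]
    exact pairU_injective (ap_inj θ₂ (pairU_G1 hK s) (pairU_G1 hK t) this)
  -- the action on the diagonal group
  have hact : ∀ (h : ↥(chevF4.group K)) (α β : Kˣ), h ∈ (TD hK).H0 →
      (∀ t, h * pairU K m t * h⁻¹ = pairU K m ((α : K) * t)) →
      (∀ t u, h * b2U K m t u * h⁻¹ = b2U K m ((β : K) * t) (iterateFrobenius K 2 m (β : K) * (β : K) * u)) →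
      (∀ t, φ ((α : K) * t) = φ α * φ t) ∧
      (∀ t, ψ ((β : K) * t) (iterateFrobenius K 2 m (β : K) * (β : K) * 0) = ψ β 0 * ψ t 0) ∧
      ∀ μ ν : Kˣ, (∀ t, ap θ₂ h * pairU K m t * (ap θ₂ h)⁻¹ = pairU K m ((μ : K) * t)) →
        (∀ t u, ap θ₂ h * b2U K m t u * (ap θ₂ h)⁻¹ =
          b2U K m ((ν : K) * t) (iterateFrobenius K 2 m (ν : K) * (ν : K) * u)) →
        (μ : K) = φ α ∧ (ν : K) = ψ β 0 := by
    intro h α β hh hA hB
    have hG := H0_le_G1 (TD hK) hh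
    obtain ⟨μ, ν, hμ, hν, -⟩ := torus_spec hK ((hH₂ h hG).2 hh)
    have hp : ∀ t, φ ((α : K) * t) = (μ : K) * φ t := fun t => pairU_injective (by
      rw [← hφ, ← hA, ap_conj θ₂ hG (pairU_G1 hK t), hφ, hμ])
    have hq : ∀ t u, ψ ((β : K) * t) (iterateFrobenius K 2 m (β : K) * (β : K) * u) = (ν : K) * ψ t u := fun t u => by
      have e := hψ ((β : K) * t) (iterateFrobenius K 2 m (β : K) * (β : K) * u)
      rw [← hB, ap_conj θ₂ hG (b2U_G1 hK t u), hψ, hν] at e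
      exact (b2U_injective e).1.symm
    have hμ' : (μ : K) = φ α := by
      have := hp 1
      rwa [mul_one, hφ1, mul_one, eq_comm] at this
    have hν' : (ν : K) = ψ β 0 := by
      have := hq 1 0
      rwa [mul_one, mul_zero, hψ1, mul_one, eq_comm] at this
    refine ⟨fun t => by rw [hp, hμ'], fun t => by rw [hq, hν'], fun μ' ν' hμ₂ hν₂ => ⟨?_, ?_⟩⟩
    · rw [← hμ']
      have := pairU_injective ((hμ₂ 1).symm.trans (hμ 1))
      simpa using this
    · rw [← hν']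
      have := (b2U_injective ((hν₂ 1 0).symm.trans (hν 1 0))).1
      simpa using this
  have hφmul : ∀ s t, φ (s * t) = φ s * φ t := by
    intro s t
    by_cases hs : s = 0
    · simp [hs, hφ0]
    · obtain ⟨h, hh, hA, hB, -⟩ := exists_torus hK (Units.mk0 s hs) 1
      exact (hact h _ _ hh hA hB).1 t
  let σ₀ : K →+* K :=
    { toFun := φ, map_one' := hφ1, map_mul' := hφmul, map_zero' := hφ0, map_add' := hφadd }
  let σ : K ≃+* K := RingEquiv.ofBijective σ₀ ⟨hφinj, Finite.injective_iff_surjective.1 hφinj⟩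
  have hσ : ∀ t, σ t = φ t := fun _ => rfl
  -- remove the field automorphism
  set θ₃ := fieldAut hK σ.symm * θ₂ with hθ₃
  have e3 : ∀ g ∈ (TD hK).G1, ap θ₃ g = ap (fieldAut hK σ.symm) (ap θ₂ g) := fun g hg => ap_comp _ _ hg
  have hU₃ : Fixes θ₃ (TD hK).U1 := (field_U1 hK _).mul hU₂
  have hH₃ : Fixes θ₃ (TD hK).H0 := (field_H0 hK _).mul hH₂
  have hn₃ : ∀ j, ∃ k ∈ (TD hK).H0, ap θ₃ ((TD hK).nS j) = k * (TD hK).nS j := fun j => by
    obtain ⟨k, hk, e⟩ := hn₂ j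
    refine ⟨ap (fieldAut hK σ.symm) k, (field_H0 hK _ k (H0_le_G1 (TD hK) hk)).2 hk, ?_⟩
    rw [e3 _ ((TD hK).N0_le_G1 ((TD hK).nS_mem_N0 j)), e,
      ap_mul _ (H0_le_G1 (TD hK) hk) ((TD hK).N0_le_G1 ((TD hK).nS_mem_N0 j)), field_nS]
  have hP : ∀ t, ap θ₃ (pairU K m t) = pairU K m t := fun t => by
    rw [e3 _ (pairU_G1 hK t), hφ, field_pairU, ← hσ, RingEquiv.symm_apply_apply]
  have hQ : ∀ t u, ap θ₃ (b2U K m t u) = b2U K m (σ.symm (ψ t u)) (σ.symm (χ t u)) := fun t u => by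
    rw [e3 _ (b2U_G1 hK t u), hψ, field_b2U]
  -- the second weight follows the first
  have hψσ : ∀ t, ψ t 0 = φ t := by
    intro t
    by_cases ht : t = 0
    · rw [ht, hφ0]
      have h := hψ 0 0
      rw [b2U_zero, ap_one, ← b2U_zero] at h
      exact (b2U_injective h).1.symm
    · obtain ⟨h, hh, hA, hB, hC⟩ := exists_torus hK (Units.mk0 t ht) 1
      obtain ⟨μ, ν, hμ, hν, -⟩ := torus_spec hK ((hH₂ h (H0_le_G1 (TD hK) hh)).2 hh)
      obtain ⟨hμ', hν'⟩ := (hact h _ _ hh hA hB).2.2 μ ν hμ hν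
      rw [Units.val_mk0] at hμ'
      rw [Units.val_one, hψ1] at hν'
      obtain rfl : ν = 1 := Units.ext hν'
      obtain ⟨h', hh', hA', hB', hC'⟩ := exists_torus hK μ 1
      have eh : ap θ₂ h = h' := by
        have hk : h'⁻¹ * ap θ₂ h ∈ (TD hK).H0 := mul_mem (inv_mem hh') ((hH₂ h (H0_le_G1 (TD hK) hh)).2 hh)
        refine (inv_mul_eq_one.1 (H0_faith hK _ hk fun j x hx => ?_)).symm
        refine X_cases hK (P := fun x => h'⁻¹ * ap θ₂ h * x * (h'⁻¹ * ap θ₂ h)⁻¹ = x) (fun s => ?_) (fun s u => ?_)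
          j x hx
        · calc _ = h'⁻¹ * (ap θ₂ h * pairU K m s * (ap θ₂ h)⁻¹) * h' := by group
            _ = h'⁻¹ * (h' * pairU K m s * h'⁻¹) * h' := by rw [hμ, hA']
            _ = _ := by group
        · calc _ = h'⁻¹ * (ap θ₂ h * b2U K m s u * (ap θ₂ h)⁻¹) * h' := by group
            _ = h'⁻¹ * (h' * b2U K m s u * h'⁻¹) * h' := by rw [hν, hB']
            _ = _ := by group
      obtain ⟨k, hk, en⟩ := hn₂ 0
      set n := (TD hK).nS 0 with hn
      have hnG := (TD hK).N0_le_G1 ((TD hK).nS_mem_N0 0)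
      have hnh : n * h * n⁻¹ ∈ (TD hK).H0 := (TD hK).H0_conj 0 h hh
      have hnh' : n * h' * n⁻¹ ∈ (TD hK).H0 := (TD hK).H0_conj 0 h' hh'
      have ec : ap θ₂ (n * h * n⁻¹) = n * h' * n⁻¹ := by
        rw [ap_conj θ₂ hnG (H0_le_G1 (TD hK) hh), en, eh]
        calc k * n * h' * (k * n)⁻¹ = k * (n * h' * n⁻¹) * k⁻¹ := by group
          _ = _ := by rw [H0_comm hK k hk _ hnh', mul_inv_cancel_right]
      have hb : n * h * n⁻¹ * b2U K m 1 0 * (n * h * n⁻¹)⁻¹ = b2U K m t 0 := by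
        rw [hC rfl 1 0]; simp
      have hb' := congrArg (ap θ₂) hb
      rw [ap_conj θ₂ (H0_le_G1 (TD hK) hnh) (b2U_G1 hK 1 0), ec, hψ, hψ, hC' rfl, hψ1, mul_one, hμ'] at hb'
      exact (b2U_injective hb').1.symm
  have hQ0 : ∀ t, ap θ₃ (b2U K m t 0) = b2U K m t (σ.symm (χ t 0)) := fun t => by
    rw [hQ, hψσ, ← hσ, RingEquiv.symm_apply_apply]
  -- the top is fixed
  have hroot : ∀ u : K, ∃ t, iterateFrobenius K 2 m t * t = u := by
    have hinj : Function.Injective fun t : K => iterateFrobenius K 2 m t * t := by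
      intro a b e
      simp only at e
      by_cases hb : b = 0
      · rw [hb, map_zero, mul_zero, mul_eq_zero] at e
        rcases e with e | e
        · rw [hb]; exact (iterateFrobenius K 2 m).injective (by rw [e, map_zero])
        · rw [hb, e]
      · set c := a / b with hc
        have hcc : iterateFrobenius K 2 m c * c = 1 := by
          rw [hc, map_div₀, div_mul_div_comm, e, div_self (mul_ne_zero (by
            simpa using hb) hb)]
        have h1 := congrArg (iterateFrobenius K 2 (m + 1)) hcc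
        rw [map_mul, map_one, (f4_frob hK c).1, f4_psi c] at h1
        have h3 : iterateFrobenius K 2 m c = 1 :=
          mul_right_cancel₀ (b := iterateFrobenius K 2 m c * c) (by rw [hcc]; exact one_ne_zero)
            (by linear_combination h1 - hcc)
        rw [h3, one_mul] at hcc
        rw [hc, div_eq_one_iff_eq hb] at hcc
        exact hcc
    exact fun u => (Finite.injective_iff_surjective.1 hinj) u
  have htop : ∀ u, ap θ₃ (b2U K m 0 u) = b2U K m 0 u := fun u => by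
    obtain ⟨t, rfl⟩ := hroot u
    rw [← b2U_sq hK t 0, ap_mul θ₃ (b2U_G1 hK t 0) (b2U_G1 hK t 0), hQ0, b2U_sq hK, b2U_sq hK]
  set f : K → K := fun t => σ.symm (χ t 0) with hf
  have hfull : ∀ t u, ap θ₃ (b2U K m t u) = b2U K m t (f t + u) := fun t u => by
    have e : b2U K m t u = b2U K m t 0 * b2U K m 0 u := by rw [b2U_mul hK]; simp
    rw [e, ap_mul θ₃ (b2U_G1 hK t 0) (b2U_G1 hK 0 u), hQ0, htop, b2U_mul hK]
    simp [hf]
  have hfadd : ∀ s t, f (s + t) = f s + f t := fun s t => by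
    have e := congrArg (ap θ₃) (b2U_mul hK s 0 t 0)
    rw [ap_mul θ₃ (b2U_G1 hK s 0) (b2U_G1 hK t 0), hfull, hfull, hfull, b2U_mul hK] at e
    linear_combination -(b2U_injective e).2
  have hfsc : ∀ s, s ≠ 0 → f s = iterateFrobenius K 2 m s * s * f 1 := fun s hs => by
    obtain ⟨h, hh, hA, hB, -⟩ := exists_torus hK 1 (Units.mk0 s hs)
    have hG := H0_le_G1 (TD hK) hh
    have hh' : ap θ₃ h = h := by
      obtain ⟨μ, ν, hμ, hν, -⟩ := torus_spec hK ((hH₃ h hG).2 hh)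
      have hk : h⁻¹ * ap θ₃ h ∈ (TD hK).H0 := mul_mem (inv_mem hh) ((hH₃ h hG).2 hh)
      refine (inv_mul_eq_one.1 (H0_faith hK _ hk fun j x hx => ?_)).symm
      refine X_cases hK (P := fun x => h⁻¹ * ap θ₃ h * x * (h⁻¹ * ap θ₃ h)⁻¹ = x) (fun w => ?_) (fun w u => ?_)
        j x hx
      · have hμ1 : (μ : K) = 1 := by
          have e := congrArg (ap θ₃) (hA 1)
          rw [ap_conj θ₃ hG (pairU_G1 hK 1), hP, hP, hμ] at e
          simpa using pairU_injective e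
        calc _ = h⁻¹ * (ap θ₃ h * pairU K m w * (ap θ₃ h)⁻¹) * h := by group
          _ = h⁻¹ * (h * pairU K m w * h⁻¹) * h := by rw [hμ, hA, hμ1, Units.val_one]
          _ = _ := by group
      · have hν1 : (ν : K) = s := by
          have e := congrArg (ap θ₃) (hB 1 0)
          rw [ap_conj θ₃ hG (b2U_G1 hK 1 0), hfull, hfull, hν] at e
          simpa using (b2U_injective e).1
        calc _ = h⁻¹ * (ap θ₃ h * b2U K m w u * (ap θ₃ h)⁻¹) * h := by group
          _ = h⁻¹ * (h * b2U K m w u * h⁻¹) * h := by rw [hν, hB, hν1, Units.val_mk0]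
          _ = _ := by group
    have e := congrArg (ap θ₃) (hB 1 0)
    rw [ap_conj θ₃ hG (b2U_G1 hK 1 0), hfull, hfull, hh', hB] at e
    simpa using (b2U_injective e).2.symm
  have hf1 : f 1 = 0 := by
    obtain ⟨c, hc⟩ := exists_moved hK hm
    have hc0 : c ≠ 0 := fun e => hc (by rw [e, map_zero])
    have hc1 : 1 + c ≠ 0 := fun e => hc (by
      rw [show c = 1 by linear_combination e - two_zero K, map_one])
    have e := hfadd 1 c
    rw [hfsc c hc0, hfsc _ hc1, map_add, map_one] at e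
    by_contra hne
    apply hc
    have h2 : (iterateFrobenius K 2 m c + c) * f 1 = 0 := by linear_combination e
    linear_combination (mul_eq_zero.1 h2).resolve_right hne - c * two_zero K
  have hfz : ∀ t, f t = 0 := fun t => by
    by_cases ht : t = 0
    · have := hfadd 0 0
      rw [add_zero] at this
      rw [ht]; linear_combination -this
    · rw [hfsc t ht, hf1, mul_zero]
  have hone : θ₃ = 1 := eq_one (TD hK) (f4_hne hK) hH₃ hU₃ (H0_comm hK) (H0_faith hK) hn₃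
    (X_cases hK (P := fun x => ap θ₃ x = x) hP fun t u => by rw [hfull, hfz, zero_add])
  refine ⟨σ, dG * x, ?_⟩
  have hinv : fieldAut hK σ * fieldAut hK σ.symm = 1 := by
    refine MulEquiv.ext fun g => Subtype.ext (Subtype.ext ?_)
    show Cfsg.Agent.H65.mapGL chevF4 σ.toRingHom (Cfsg.Agent.H65.mapGL chevF4 σ.symm.toRingHom
      (g : GL chevF4.Idx K)) = (g : GL chevF4.Idx K)
    apply Units.ext
    rw [Cfsg.Agent.H65.coe_mapGL, Cfsg.Agent.H65.coe_mapGL, Matrix.map_map]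
    ext i j
    simp
  rw [map_mul, mul_assoc, ← hθ₁, ← hθ₂, eq_inv_of_mul_eq_one_left hinv, ← mul_one (fieldAut hK σ.symm)⁻¹, ← hone,
    hθ₃, inv_mul_cancel_left]

include hm in
theorem out_surjective :
    Function.Surjective fun σ : K ≃+* K => (QuotientGroup.mk (fieldAut hK σ) : Cfsg.Out ↥(TD hK).G1) := by
  intro q
  obtain ⟨θ, rfl⟩ := QuotientGroup.mk_surjective q
  obtain ⟨σ, y, e⟩ := exists_field_inner hK hm θ
  refine ⟨σ, QuotientGroup.eq.2 (MonoidHom.mem_range.2 ?_)⟩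
  refine ⟨θ⁻¹ y⁻¹, ?_⟩
  rw [← e]
  refine MulEquiv.ext fun g => ?_
  simp [mul_assoc]

include hm in
theorem out_injective :
    Function.Injective fun σ : K ≃+* K => (QuotientGroup.mk (fieldAut hK σ) : Cfsg.Out ↥(TD hK).G1) := by
  intro σ τ e
  obtain ⟨y, hy⟩ := MonoidHom.mem_range.1 (QuotientGroup.eq.1 e)
  have hy' : fieldAut hK σ * MulAut.conj y = fieldAut hK τ := by rw [hy, mul_inv_cancel_left]
  have hconj : MulAut.conj y = (fieldAut hK σ)⁻¹ * fieldAut hK τ := by rw [← hy', inv_mul_cancel_left]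
  have hU : Fixes (MulAut.conj y) (TD hK).U1 := hconj ▸ (field_U1 hK σ).inv.mul (field_U1 hK τ)
  have hH : Fixes (MulAut.conj y) (TD hK).H0 := hconj ▸ (field_H0 hK σ).inv.mul (field_H0 hK τ)
  have hB : (y : ↥(chevF4.group K)) ∈ (TD hK).B1 := mem_B1_of_conj_U1 (TD hK) (f4_hne hK) y.2 fun u hu => by
    rw [← ap_conj_aut y ((TD hK).U1_le_G1 hu)]
    exact (hU u ((TD hK).U1_le_G1 hu)).2 hu
  have hN : (y : ↥(chevF4.group K)) ∈ (TD hK).N0 :=
    mem_N0_of_conj_H0 (TD hK) (f4_hne hK) (H0_free hK hm) y.2 fun u hu => by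
      rw [← ap_conj_aut y (H0_le_G1 (TD hK) hu)]
      exact (hH u (H0_le_G1 (TD hK) hu)).2 hu
  have hy0 : (y : ↥(chevF4.group K)) ∈ (TD hK).H0 := mem_H0_of_conj_U1 (TD hK) (f4_hne hK) hN fun u hu => by
    rw [← ap_conj_aut y ((TD hK).U1_le_G1 hu)]
    exact (hU u ((TD hK).U1_le_G1 hu)).2 hu
  obtain ⟨α, β, hA, -, -⟩ := torus_spec hK hy0
  have key : ∀ t, σ ((α : K) * t) = τ t := fun t => pairU_injective (m := m) (by
    rw [← field_pairU hK, ← field_pairU hK, ← hA, ← hy', ap_comp _ _ (pairU_G1 hK t),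
      ap_conj_aut y (pairU_G1 hK t)])
  have hα : (α : K) = 1 := σ.injective (by rw [map_one, ← mul_one (α : K), key, map_one])
  exact RingEquiv.ext fun t => by rw [← key t, hα, one_mul]

include hK hm in
theorem card_out : Nat.card (Cfsg.Out ↥(twistedF4 K (2 ^ m))) = 2 * m + 1 := by
  have e := g1Equiv (f4Setup K hK) (twistedF4 K (2 ^ m)) twistedF4_le rfl
  obtain ⟨E⟩ := Cfsg.Agent.H4.out_congr e
  rw [← Nat.card_congr E.toEquiv, ← Nat.card_eq_of_bijective _ ⟨out_injective hK hm, out_surjective hK hm⟩,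
    card_ringAut hK]

end Cfsg.Agent.H70.F4Out
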